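import Cfsg.Agent.Lib.HSCov.K2Data

/-! # The kernel checks of the chain for the double cover of HS, generated by a script. -/

set_option autoImplicit false
set_option maxRecDepth 100000

namespace Cfsg.Agent.Lib.HSCov.K2Chain

open _root_.Cfsg.Agent.Lib.PermComp
open _root_.Cfsg.Agent.Lib.PermComp.Core
open Cfsg.Agent.Lib.Schur.CoverC
open Cfsg.Agent.Lib.HSCov.K2Data


theorem A0 : levA c_n c_w c_mask c_L c_maskL c_idc c_z c_lev0 [c_lev1, c_lev2, c_lev3, c_lev4, c_lev5] = true := by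
  decide +kernel

theorem R0_0 : rowsOK c_w c_mask c_L c_maskL c_z c_P c_lev0.lev.U c_lev0.lev.gens (c_lev0.lev :: ([c_lev1, c_lev2, c_lev3, c_lev4, c_lev5]).map CLev.lev) c_p0_0 c_r0_0 = true := by
  decide +kernel

theorem R0_1 : rowsOK c_w c_mask c_L c_maskL c_z c_P c_lev0.lev.U c_lev0.lev.gens (c_lev0.lev :: ([c_lev1, c_lev2, c_lev3, c_lev4, c_lev5]).map CLev.lev) c_p0_1 c_r0_1 = true := by
  decide +kernel

theorem R0_2 : rowsOK c_w c_mask c_L c_maskL c_z c_P c_lev0.lev.U c_lev0.lev.gens (c_lev0.lev :: ([c_lev1, c_lev2, c_lev3, c_lev4, c_lev5]).map CLev.lev) c_p0_2 c_r0_2 = true := by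
  decide +kernel

theorem R0_3 : rowsOK c_w c_mask c_L c_maskL c_z c_P c_lev0.lev.U c_lev0.lev.gens (c_lev0.lev :: ([c_lev1, c_lev2, c_lev3, c_lev4, c_lev5]).map CLev.lev) c_p0_3 c_r0_3 = true := by
  decide +kernel

theorem R0_4 : rowsOK c_w c_mask c_L c_maskL c_z c_P c_lev0.lev.U c_lev0.lev.gens (c_lev0.lev :: ([c_lev1, c_lev2, c_lev3, c_lev4, c_lev5]).map CLev.lev) c_p0_4 c_r0_4 = true := by
  decide +kernel

theorem R0_5 : rowsOK c_w c_mask c_L c_maskL c_z c_P c_lev0.lev.U c_lev0.lev.gens (c_lev0.lev :: ([c_lev1, c_lev2, c_lev3, c_lev4, c_lev5]).map CLev.lev) c_p0_5 c_r0_5 = true := by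
  decide +kernel

theorem R0_6 : rowsOK c_w c_mask c_L c_maskL c_z c_P c_lev0.lev.U c_lev0.lev.gens (c_lev0.lev :: ([c_lev1, c_lev2, c_lev3, c_lev4, c_lev5]).map CLev.lev) c_p0_6 c_r0_6 = true := by
  decide +kernel

theorem R0_7 : rowsOK c_w c_mask c_L c_maskL c_z c_P c_lev0.lev.U c_lev0.lev.gens (c_lev0.lev :: ([c_lev1, c_lev2, c_lev3, c_lev4, c_lev5]).map CLev.lev) c_p0_7 c_r0_7 = true := by
  decide +kernel

theorem R0_8 : rowsOK c_w c_mask c_L c_maskL c_z c_P c_lev0.lev.U c_lev0.lev.gens (c_lev0.lev :: ([c_lev1, c_lev2, c_lev3, c_lev4, c_lev5]).map CLev.lev) c_p0_8 c_r0_8 = true := by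
  decide +kernel

theorem P0 : ptsOf c_lev0.lev = c_p0_0 ++ c_p0_1 ++ c_p0_2 ++ c_p0_3 ++ c_p0_4 ++ c_p0_5 ++ c_p0_6 ++ c_p0_7 ++ c_p0_8 := by
  decide +kernel

theorem B0 : LevB c_w c_mask c_L c_maskL c_z c_P c_lev0 [c_lev1, c_lev2, c_lev3, c_lev4, c_lev5] := by
  intro x hx s hs
  rw [P0] at hx
  simp only [List.mem_append] at hx
  rcases hx with (((((((h0 | h1) | h2) | h3) | h4) | h5) | h6) | h7) | h8
  · exact rowsOK_spec _ _ _ _ _ R0_0 x h0 s hs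
  · exact rowsOK_spec _ _ _ _ _ R0_1 x h1 s hs
  · exact rowsOK_spec _ _ _ _ _ R0_2 x h2 s hs
  · exact rowsOK_spec _ _ _ _ _ R0_3 x h3 s hs
  · exact rowsOK_spec _ _ _ _ _ R0_4 x h4 s hs
  · exact rowsOK_spec _ _ _ _ _ R0_5 x h5 s hs
  · exact rowsOK_spec _ _ _ _ _ R0_6 x h6 s hs
  · exact rowsOK_spec _ _ _ _ _ R0_7 x h7 s hs
  · exact rowsOK_spec _ _ _ _ _ R0_8 x h8 s hs

theorem A1 : levA c_n c_w c_mask c_L c_maskL c_idc c_z c_lev1 [c_lev2, c_lev3, c_lev4, c_lev5] = true := by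
  decide +kernel

theorem R1_0 : rowsOK c_w c_mask c_L c_maskL c_z c_P c_lev1.lev.U c_lev1.lev.gens (c_lev1.lev :: ([c_lev2, c_lev3, c_lev4, c_lev5]).map CLev.lev) c_p1_0 c_r1_0 = true := by
  decide +kernel

theorem R1_1 : rowsOK c_w c_mask c_L c_maskL c_z c_P c_lev1.lev.U c_lev1.lev.gens (c_lev1.lev :: ([c_lev2, c_lev3, c_lev4, c_lev5]).map CLev.lev) c_p1_1 c_r1_1 = true := by
  decide +kernel

theorem R1_2 : rowsOK c_w c_mask c_L c_maskL c_z c_P c_lev1.lev.U c_lev1.lev.gens (c_lev1.lev :: ([c_lev2, c_lev3, c_lev4, c_lev5]).map CLev.lev) c_p1_2 c_r1_2 = true := by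
  decide +kernel

theorem R1_3 : rowsOK c_w c_mask c_L c_maskL c_z c_P c_lev1.lev.U c_lev1.lev.gens (c_lev1.lev :: ([c_lev2, c_lev3, c_lev4, c_lev5]).map CLev.lev) c_p1_3 c_r1_3 = true := by
  decide +kernel

theorem R1_4 : rowsOK c_w c_mask c_L c_maskL c_z c_P c_lev1.lev.U c_lev1.lev.gens (c_lev1.lev :: ([c_lev2, c_lev3, c_lev4, c_lev5]).map CLev.lev) c_p1_4 c_r1_4 = true := by
  decide +kernel

theorem P1 : ptsOf c_lev1.lev = c_p1_0 ++ c_p1_1 ++ c_p1_2 ++ c_p1_3 ++ c_p1_4 := by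
  decide +kernel

theorem B1 : LevB c_w c_mask c_L c_maskL c_z c_P c_lev1 [c_lev2, c_lev3, c_lev4, c_lev5] := by
  intro x hx s hs
  rw [P1] at hx
  simp only [List.mem_append] at hx
  rcases hx with (((h0 | h1) | h2) | h3) | h4
  · exact rowsOK_spec _ _ _ _ _ R1_0 x h0 s hs
  · exact rowsOK_spec _ _ _ _ _ R1_1 x h1 s hs
  · exact rowsOK_spec _ _ _ _ _ R1_2 x h2 s hs
  · exact rowsOK_spec _ _ _ _ _ R1_3 x h3 s hs
  · exact rowsOK_spec _ _ _ _ _ R1_4 x h4 s hs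

theorem A2 : levA c_n c_w c_mask c_L c_maskL c_idc c_z c_lev2 [c_lev3, c_lev4, c_lev5] = true := by
  decide +kernel

theorem R2_0 : rowsOK c_w c_mask c_L c_maskL c_z c_P c_lev2.lev.U c_lev2.lev.gens (c_lev2.lev :: ([c_lev3, c_lev4, c_lev5]).map CLev.lev) c_p2_0 c_r2_0 = true := by
  decide +kernel

theorem P2 : ptsOf c_lev2.lev = c_p2_0 := by
  decide +kernel

theorem B2 : LevB c_w c_mask c_L c_maskL c_z c_P c_lev2 [c_lev3, c_lev4, c_lev5] := by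
  intro x hx s hs
  rw [P2] at hx
  exact rowsOK_spec _ _ _ _ _ R2_0 x hx s hs

theorem A3 : levA c_n c_w c_mask c_L c_maskL c_idc c_z c_lev3 [c_lev4, c_lev5] = true := by
  decide +kernel

theorem R3_0 : rowsOK c_w c_mask c_L c_maskL c_z c_P c_lev3.lev.U c_lev3.lev.gens (c_lev3.lev :: ([c_lev4, c_lev5]).map CLev.lev) c_p3_0 c_r3_0 = true := by
  decide +kernel

theorem P3 : ptsOf c_lev3.lev = c_p3_0 := by
  decide +kernel

theorem B3 : LevB c_w c_mask c_L c_maskL c_z c_P c_lev3 [c_lev4, c_lev5] := by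
  intro x hx s hs
  rw [P3] at hx
  exact rowsOK_spec _ _ _ _ _ R3_0 x hx s hs

theorem A4 : levA c_n c_w c_mask c_L c_maskL c_idc c_z c_lev4 [c_lev5] = true := by
  decide +kernel

theorem R4_0 : rowsOK c_w c_mask c_L c_maskL c_z c_P c_lev4.lev.U c_lev4.lev.gens (c_lev4.lev :: ([c_lev5]).map CLev.lev) c_p4_0 c_r4_0 = true := by
  decide +kernel

theorem P4 : ptsOf c_lev4.lev = c_p4_0 := by
  decide +kernel

theorem B4 : LevB c_w c_mask c_L c_maskL c_z c_P c_lev4 [c_lev5] := by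
  intro x hx s hs
  rw [P4] at hx
  exact rowsOK_spec _ _ _ _ _ R4_0 x hx s hs

theorem A5 : levA c_n c_w c_mask c_L c_maskL c_idc c_z c_lev5 [] = true := by
  decide +kernel

theorem R5_0 : rowsOK c_w c_mask c_L c_maskL c_z c_P c_lev5.lev.U c_lev5.lev.gens (c_lev5.lev :: ([]).map CLev.lev) c_p5_0 c_r5_0 = true := by
  decide +kernel

theorem P5 : ptsOf c_lev5.lev = c_p5_0 := by
  decide +kernel

theorem B5 : LevB c_w c_mask c_L c_maskL c_z c_P c_lev5 [] := by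
  intro x hx s hs
  rw [P5] at hx
  exact rowsOK_spec _ _ _ _ _ R5_0 x hx s hs

theorem chain_ok : ChainP c_n c_w c_mask c_L c_maskL c_idc c_z c_P c_levels := by
  unfold c_levels
  simp only [ChainP]
  exact ⟨⟨⟨⟨⟨⟨trivial, A5, B5⟩, A4, B4⟩, A3, B3⟩, A2, B2⟩, A1, B1⟩, A0, B0⟩

end Cfsg.Agent.Lib.HSCov.K2Chain
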