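import Cfsg.Agent.Lib.HSCov.Base
import Cfsg.Agent.Lib.HSCov.K2Chain

/-!
# A stem extension of `HS` with kernel of order 2

The cover acts monomially on the 352 cosets of a subgroup `U₃(5)`, i.e. on `2 * 352` points, and on the 100 points
as `HS` does.
-/

set_option autoImplicit false
set_option maxRecDepth 100000

namespace Cfsg.Agent.Lib.HSCov.K2

open Cfsg
open _root_.Cfsg.Agent.Lib.PermComp
open _root_.Cfsg.Agent.Lib.PermComp.Core
open Cfsg.Agent.Lib.HSCov.K2Data Cfsg.Agent.Lib.Schur.CoverCert Cfsg.Agent.Lib.Schur.CoverC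
open Cfsg.Agent.Lib.HSCov.Base

theorem gens_ok : allL (Cfsg.Agent.Lib.Schur.CoverH.blockOK 704 100 c_w c_mask 9 511) c_gens = true := by
  decide +kernel

theorem base_eq : c_gens.map (·.2.2) = c2_T := by
  decide +kernel

theorem hm_ok : c_mask = 2 ^ c_w - 1 := by
  decide +kernel

theorem hid_b : allL (fun i => Nat.beq (app c_w c_mask c_idc i) i) (List.range (100 + 704)) = true := by
  decide +kernel

theorem hid_ok : ∀ i < 100 + 704, app c_w c_mask c_idc i = i := fun i hi =>
  Nat.eq_of_beq_eq_true ((allL_eq_true _ _).1 hid_b i (List.mem_range.2 hi))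

theorem slp_ok : slpCheck (100 + 704) c_w c_mask c_idc (c_u :: c_v :: topGens (c_levels.map CLev.lev)) c_prog0
    (c_gens.map (·.1)).reverse (c_gens.map (·.1)).length = true := by
  decide +kernel

theorem twits_ok : gensOK c_w c_mask c_L c_maskL c_z c_P c_idc (c_levels.map CLev.lev) (c_gens.map (·.1)) c_twits = true := by
  decide +kernel

theorem sizes_ok : sizes c_levels = 44352000 := by
  decide +kernel

theorem z_good : goodPair (100 + 704) c_w c_mask c_z c_zd = true := by
  decide +kernel

theorem z_fix : allL (fun b => Nat.beq (app c_w c_mask c_z b) b) (List.range 100) = true := by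
  decide +kernel

theorem z_comm : allL (fun t : ℕ × ℕ × ℕ => Nat.beq (comp (100 + 704) c_w c_mask c_z t.1)
      (comp (100 + 704) c_w c_mask t.1 c_z)) c_gens = true := by
  decide +kernel

theorem z_pow : Nat.beq (powC (100 + 704) c_w c_mask c_idc c_z 2) c_idc = true := by
  decide +kernel

theorem z_ne : Nat.beq (app c_w c_mask c_z (nat_lit 100)) (nat_lit 100) = false := by
  decide +kernel

theorem z_uv : Nat.beq (comp (100 + 704) c_w c_mask c_u c_v)
      (comp (100 + 704) c_w c_mask c_z (comp (100 + 704) c_w c_mask c_v c_u)) = true := by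
  decide +kernel

theorem P_eq : c_P = [nat_lit 0, nat_lit 1, nat_lit 2, nat_lit 3, nat_lit 4] ++ (List.range 352).map (fun x => 100 + 2 * x) := by
  decide +kernel

theorem base_P : ∀ x ∈ c2_levels.map Core.Lev.base, x ∈ c_P := by
  decide +kernel

theorem cov_b : allL (fun i => Nat.beq (Cfsg.Agent.Lib.Schur.CoverC.iterZ c_w c_mask c_z (i % 2) (100 + 2 * (i / 2))) (100 + i))
    (List.range 704) = true := by
  decide +kernel

/-- The stem extension. -/
theorem exists_stem : ∃ (Γ : Type) (_ : Group Γ) (_ : Finite Γ) (σ : Γ →* Cfsg.Agent.Lib.LeechP.HS.PP),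
    IsStemExtension σ ∧ Nat.card σ.ker = 2 := by
  have h := Cfsg.Agent.Lib.Schur.CoverC.exists_stem_of_chain (N := 704) (m := 100) (w := c_w)
    (mask := c_mask) (L := c_L) (maskL := c_maskL) (idc := c_idc) (w' := 9) (mask' := 511)
    (β := Fin 100) (Equiv.refl (Fin 100)) (k := 2) Nat.prime_two (gens := c_gens) (prog := c_prog0) (ls := c_levels)
    (zc := c_z) (zd := c_zd) (uc := c_u) (vc := c_v) (p := 100) (Pts := c_P) (twits := c_twits)
    hm_ok hid_ok gens_ok slp_ok K2Chain.chain_ok twits_ok
    (by
      rw [base_eq, sizes_ok]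
      exact card_H.symm)
    z_good z_fix z_comm z_pow (by norm_num) z_ne z_uv
    (by
      rw [base_eq]
      exact hbase base_P)
    (by
      intro i hi
      refine ⟨100 + 2 * (i / 2), ?_, by omega, i % 2, ?_⟩
      · rw [P_eq]
        refine List.mem_append_right _ ?_
        exact List.mem_map.2 ⟨i / 2, List.mem_range.2 (by omega), rfl⟩
      · exact Nat.eq_of_beq_eq_true ((allL_eq_true _ _).1 cov_b i (List.mem_range.2 hi)))
  rw [base_eq, H_eq] at h
  exact h

end Cfsg.Agent.Lib.HSCov.K2
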